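import Mathlib

set_option autoImplicit false
set_option linter.unusedSectionVars false

/-! A coordinate model for the alternating group of degree `n = p * m + r`, `r ≤ 1`, `m ≥ p` (helper85, for S5165):
points `(i, x)` with `i` in the index set `ZMod p ⊕ κ` of blocks and `x : ZMod p`, plus the points of a subsingleton `ε`. -/

namespace Cfsg.Agent.Lib.Helper85.AltM

open Equiv Equiv.Perm

variable (p : ℕ) [Fact p.Prime] (κ ε : Type) [Fintype κ] [DecidableEq κ] [Fintype ε] [DecidableEq ε]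

/-- the index set of the blocks -/
abbrev Idx := ZMod p ⊕ κ
/-- the moved points -/
abbrev X := Idx p κ × ZMod p
/-- all points -/
abbrev M := X p κ ⊕ ε

variable {p κ}

/-- blockwise translations -/
def tr (f : Idx p κ → ZMod p) : Perm (X p κ) := Equiv.prodCongrRight (fun i => Equiv.addRight (f i))
/-- blockwise multiplications -/
def ml (l : Idx p κ → (ZMod p)ˣ) : Perm (X p κ) := Equiv.prodCongrRight (fun i => Units.mulLeft (l i))
/-- permutations of the blocks -/
def bl (σ : Perm (Idx p κ)) : Perm (X p κ) := Equiv.prodCongrLeft (fun _ => σ)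
/-- the shear `(a, x) ↦ (a + s x, x)` on the plane formed by the first `p` blocks -/
def sh (s : ZMod p) : Perm (X p κ) :=
  Equiv.prodCongrLeft (fun x => Equiv.sumCongr (Equiv.addRight (s * x)) (Equiv.refl κ))

@[simp] theorem tr_apply (f : Idx p κ → ZMod p) (i : Idx p κ) (x : ZMod p) : tr f (i, x) = (i, x + f i) := rfl
@[simp] theorem ml_apply (l : Idx p κ → (ZMod p)ˣ) (i : Idx p κ) (x : ZMod p) :
    ml l (i, x) = (i, (l i : ZMod p) * x) := rfl
@[simp] theorem bl_apply (σ : Perm (Idx p κ)) (i : Idx p κ) (x : ZMod p) : bl σ (i, x) = (σ i, x) := rfl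
@[simp] theorem sh_apply_inl (s a x : ZMod p) : sh (κ := κ) s (Sum.inl a, x) = (Sum.inl (a + s * x), x) := rfl
@[simp] theorem sh_apply_inr (s : ZMod p) (k : κ) (x : ZMod p) : sh (κ := κ) s (Sum.inr k, x) = (Sum.inr k, x) := rfl

theorem tr_add (f g : Idx p κ → ZMod p) : tr (f + g) = tr f * tr g := by
  ext ⟨i, x⟩ <;> simp [add_comm, add_left_comm]
theorem tr_zero : tr (0 : Idx p κ → ZMod p) = 1 := by
  ext ⟨i, x⟩ <;> simp
theorem tr_neg (f : Idx p κ → ZMod p) : tr (-f) = (tr f)⁻¹ := by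
  rw [eq_inv_iff_mul_eq_one, ← tr_add, neg_add_cancel, tr_zero]
theorem tr_injective : Function.Injective (tr : (Idx p κ → ZMod p) → Perm (X p κ)) := by
  intro f g h
  funext i
  have := congrArg (fun π : Perm (X p κ) => (π (i, 0)).2) h
  simpa using this
theorem tr_nsmul (f : Idx p κ → ZMod p) (k : ℕ) : tr (k • f) = tr f ^ k := by
  induction k with
  | zero => simp [tr_zero]
  | succ k ih => rw [succ_nsmul, tr_add, ih, pow_succ]
theorem tr_pow_p (f : Idx p κ → ZMod p) : tr f ^ p = 1 := by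
  rw [← tr_nsmul]
  have : p • f = 0 := by
    funext i
    simp
  rw [this, tr_zero]
theorem tr_comm (f g : Idx p κ → ZMod p) : tr f * tr g = tr g * tr f := by
  rw [← tr_add, ← tr_add, add_comm]

theorem ml_mul (l l' : Idx p κ → (ZMod p)ˣ) : ml (l * l') = ml l * ml l' := by
  ext ⟨i, x⟩ <;> simp [mul_assoc]
theorem ml_one : ml (1 : Idx p κ → (ZMod p)ˣ) = 1 := by
  ext ⟨i, x⟩ <;> simp
theorem ml_inv (l : Idx p κ → (ZMod p)ˣ) : ml l⁻¹ = (ml l)⁻¹ := by
  rw [eq_inv_iff_mul_eq_one, ← ml_mul, inv_mul_cancel, ml_one]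

theorem bl_mul (σ τ : Perm (Idx p κ)) : bl (σ * τ) = bl σ * bl τ := by
  ext ⟨i, x⟩ <;> simp
theorem bl_one : bl (1 : Perm (Idx p κ)) = 1 := by
  ext ⟨i, x⟩ <;> simp
theorem bl_inv (σ : Perm (Idx p κ)) : bl σ⁻¹ = (bl σ)⁻¹ := by
  rw [eq_inv_iff_mul_eq_one, ← bl_mul, inv_mul_cancel, bl_one]

theorem ml_conj_tr (l : Idx p κ → (ZMod p)ˣ) (f : Idx p κ → ZMod p) :
    ml l * tr f * (ml l)⁻¹ = tr (fun i => (l i : ZMod p) * f i) := by
  rw [mul_inv_eq_iff_eq_mul]
  ext ⟨i, x⟩ <;> simp [mul_add]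
theorem bl_conj_tr (σ : Perm (Idx p κ)) (f : Idx p κ → ZMod p) :
    bl σ * tr f * (bl σ)⁻¹ = tr (fun i => f (σ⁻¹ i)) := by
  rw [mul_inv_eq_iff_eq_mul]
  ext ⟨i, x⟩ <;> simp
theorem bl_conj_ml (σ : Perm (Idx p κ)) (l : Idx p κ → (ZMod p)ˣ) :
    bl σ * ml l * (bl σ)⁻¹ = ml (fun i => l (σ⁻¹ i)) := by
  rw [mul_inv_eq_iff_eq_mul]
  ext ⟨i, x⟩ <;> simp

theorem sign_ml (l : Idx p κ → (ZMod p)ˣ) : sign (ml l) = ∏ i, sign (Units.mulLeft (l i)) :=
  sign_prodCongrRight _
theorem sign_tr (f : Idx p κ → ZMod p) : sign (tr f) = ∏ i, sign (Equiv.addRight (f i)) :=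
  sign_prodCongrRight _
theorem sign_bl (σ : Perm (Idx p κ)) : sign (bl σ) = sign σ ^ p := by
  have := sign_prodCongrLeft (fun _ : ZMod p => σ)
  show sign (Equiv.prodCongrLeft fun _ : ZMod p => σ) = _
  rw [this]
  simp [ZMod.card]

/-- extension of a permutation of the moved points by the identity -/
def J : Perm (X p κ) →* Perm (M p κ ε) := (sumCongrHom (X p κ) ε).comp (MonoidHom.inl _ _)

variable {ε}

@[simp] theorem J_apply_inl (π : Perm (X p κ)) (y : X p κ) : J ε π (Sum.inl y) = Sum.inl (π y) := rfl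
@[simp] theorem J_apply_inr (π : Perm (X p κ)) (e : ε) : J ε π (Sum.inr e) = Sum.inr e := rfl
theorem J_injective : Function.Injective (J (p := p) (κ := κ) ε) := by
  intro π π' h
  ext y
  · have := congrArg (fun g : Perm (M p κ ε) => g (Sum.inl y)) h
    simpa using congrArg Prod.fst (Sum.inl_injective this)
  · have := congrArg (fun g : Perm (M p κ ε) => g (Sum.inl y)) h
    simpa using congrArg Prod.snd (Sum.inl_injective this)
theorem sign_J (π : Perm (X p κ)) : sign (J ε π) = sign π := by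
  show sign (Equiv.Perm.sumCongr π 1) = _
  rw [sign_sumCongr, Equiv.Perm.sign_one, mul_one]

/-- a permutation of all points preserving the set of moved points comes from a permutation of the moved points -/
theorem exists_eq_J [Subsingleton ε] (g : Perm (M p κ ε)) (hg : ∀ y : X p κ, ∃ y', g (Sum.inl y) = Sum.inl y') :
    ∃ π, g = J ε π := by
  have h := mem_sumCongrHom_range_of_perm_mapsTo_inl (σ := g) (by
    rintro _ ⟨y, rfl⟩
    obtain ⟨y', hy'⟩ := hg y
    exact ⟨y', hy'.symm⟩)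
  obtain ⟨⟨π, ρ⟩, h⟩ := h
  refine ⟨π, ?_⟩
  rw [← h]
  have : ρ = 1 := Subsingleton.elim _ _
  rw [this]
  rfl

/-- the shift of the first `p` blocks -/
def T (s : ZMod p) : Perm (Idx p κ) := Equiv.sumCongr (Equiv.addRight s) (Equiv.refl κ)
@[simp] theorem T_apply_inl (s a : ZMod p) : T (κ := κ) s (Sum.inl a) = Sum.inl (a + s) := rfl
@[simp] theorem T_apply_inr (s : ZMod p) (k : κ) : T (κ := κ) s (Sum.inr k) = Sum.inr k := rfl
theorem T_add (s s' : ZMod p) : T (κ := κ) (s + s') = T s * T s' := by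
  ext (a | k) <;> simp [add_comm, add_left_comm]
theorem T_zero : T (κ := κ) (0 : ZMod p) = 1 := by
  ext (a | k) <;> simp
theorem T_neg (s : ZMod p) : T (κ := κ) (-s) = (T s)⁻¹ := by
  rw [eq_inv_iff_mul_eq_one, ← T_add, neg_add_cancel, T_zero]

/-- the multiplication of the indices of the first `p` blocks by a unit -/
def D (b : (ZMod p)ˣ) : Perm (Idx p κ) := Equiv.sumCongr (Units.mulLeft b) (Equiv.refl κ)
@[simp] theorem D_apply_inl (b : (ZMod p)ˣ) (a : ZMod p) : D (κ := κ) b (Sum.inl a) = Sum.inl ((b : ZMod p) * a) := rfl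
@[simp] theorem D_apply_inr (b : (ZMod p)ˣ) (k : κ) : D (κ := κ) b (Sum.inr k) = Sum.inr k := rfl

/-- the diagonal element `(a, x) ↦ (b a, b⁻¹ x)` of the plane formed by the first `p` blocks -/
def tau (b : (ZMod p)ˣ) : Perm (X p κ) := bl (D b) * ml (Sum.elim (fun _ => b⁻¹) (fun _ => 1))

/-- the translations of the plane formed by the first `p` blocks, times translations of the other blocks -/
def vt (s c : ZMod p) (h : κ → ZMod p) : Perm (X p κ) := tr (Sum.elim (fun _ => c) h) * bl (T s)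
@[simp] theorem vt_apply_inl (s c : ZMod p) (h : κ → ZMod p) (a x : ZMod p) :
    vt s c h (Sum.inl a, x) = (Sum.inl (a + s), x + c) := rfl
@[simp] theorem vt_apply_inr (s c : ZMod p) (h : κ → ZMod p) (k : κ) (x : ZMod p) :
    vt s c h (Sum.inr k, x) = (Sum.inr k, x + h k) := rfl
theorem vt_add (s c : ZMod p) (h : κ → ZMod p) (s' c' : ZMod p) (h' : κ → ZMod p) :
    vt (s + s') (c + c') (h + h') = vt s c h * vt s' c' h' := by
  ext ⟨(a | k), x⟩ <;> simp [add_comm, add_left_comm]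
theorem vt_zero : vt (κ := κ) (0 : ZMod p) 0 0 = 1 := by
  ext ⟨(a | k), x⟩ <;> simp
theorem vt_neg (s c : ZMod p) (h : κ → ZMod p) : vt (-s) (-c) (-h) = (vt s c h)⁻¹ := by
  rw [eq_inv_iff_mul_eq_one, ← vt_add, neg_add_cancel, neg_add_cancel, neg_add_cancel, vt_zero]

variable (p κ ε)

/-- the base group: all blockwise translations -/
def Ahat : Subgroup (Perm (M p κ ε)) where
  carrier := {g | ∃ f, g = J ε (tr f)}
  mul_mem' := by
    rintro _ _ ⟨f, rfl⟩ ⟨g, rfl⟩
    exact ⟨f + g, by rw [tr_add, map_mul]⟩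
  one_mem' := ⟨0, by rw [tr_zero, map_one]⟩
  inv_mem' := by
    rintro _ ⟨f, rfl⟩
    exact ⟨-f, by rw [tr_neg, map_inv]⟩

/-- the even part of the base group -/
def AA : Subgroup (Perm (M p κ ε)) := Ahat p κ ε ⊓ alternatingGroup (M p κ ε)

/-- translations of the plane and of the other blocks -/
def VV : Subgroup (Perm (M p κ ε)) where
  carrier := {g | ∃ s c h, g = J ε (vt s c h)}
  mul_mem' := by
    rintro _ _ ⟨s, c, h, rfl⟩ ⟨s', c', h', rfl⟩
    exact ⟨s + s', c + c', h + h', by rw [vt_add, map_mul]⟩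
  one_mem' := ⟨0, 0, 0, by rw [vt_zero, map_one]⟩
  inv_mem' := by
    rintro _ ⟨s, c, h, rfl⟩
    exact ⟨-s, -c, -h, by rw [vt_neg, map_inv]⟩

/-- the base group extended by the shift of the first `p` blocks -/
def NN : Subgroup (Perm (M p κ ε)) where
  carrier := {g | ∃ f s, g = J ε (tr f * bl (T s))}
  mul_mem' := by
    rintro _ _ ⟨f, s, rfl⟩ ⟨f', s', rfl⟩
    refine ⟨f + (fun i => f' ((T s)⁻¹ i)), s + s', ?_⟩
    rw [← map_mul, tr_add, T_add, bl_mul, ← bl_conj_tr]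
    congr 1
    group
  one_mem' := ⟨0, 0, by rw [tr_zero, T_zero, bl_one, one_mul, map_one]⟩
  inv_mem' := by
    rintro _ ⟨f, s, rfl⟩
    refine ⟨-(fun i => f ((T (-s))⁻¹ i)), -s, ?_⟩
    rw [← map_inv, tr_neg, ← bl_conj_tr, T_neg, bl_inv]
    congr 1
    group

variable {p κ ε}

theorem mem_Ahat {g : Perm (M p κ ε)} : g ∈ Ahat p κ ε ↔ ∃ f, g = J ε (tr f) := Iff.rfl
theorem mem_AA {g : Perm (M p κ ε)} : g ∈ AA p κ ε ↔ (∃ f, g = J ε (tr f)) ∧ sign g = 1 := Iff.rfl
theorem mem_VV {g : Perm (M p κ ε)} : g ∈ VV p κ ε ↔ ∃ s c h, g = J ε (vt s c h) := Iff.rfl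
theorem mem_NN {g : Perm (M p κ ε)} : g ∈ NN p κ ε ↔ ∃ f s, g = J ε (tr f * bl (T s)) := Iff.rfl

end Cfsg.Agent.Lib.Helper85.AltM
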