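import Mathlib

set_option autoImplicit false

/-! A 1-cocycle with values in an abelian normal subgroup that vanishes on a subgroup `T`: its
`|G:T|`-th power is a coboundary (helper85). -/

namespace Cfsg.Agent.Lib.Helper85

open scoped IsMulCommutative

variable {G : Type*} [Group G]

theorem cocycle_pow_index [Finite G] (T N : Subgroup G) [N.Normal] [IsMulCommutative N]
    (c : G → N) (hc : ∀ g h, c (g * h) = c g * MulAut.conjNormal g (c h))
    (hT : ∀ s ∈ T, c s = 1) :
    ∃ w : N, ∀ h, c h ^ T.index = w * (MulAut.conjNormal h w)⁻¹ := by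
  classical
  have : Fintype (G ⧸ T) := Fintype.ofFinite _
  have hcoset : ∀ g g' : G, (g : G ⧸ T) = g' → c g = c g' := by
    intro g g' h
    have h1 : g⁻¹ * g' ∈ T := QuotientGroup.eq.mp h
    have h2 : g' = g * (g⁻¹ * g') := by group
    rw [h2, hc, hT _ h1, map_one, mul_one]
  refine ⟨∏ q : G ⧸ T, c q.out, fun h => ?_⟩
  have h1 : MulAut.conjNormal h (∏ q : G ⧸ T, c q.out) =
      ∏ q : G ⧸ T, ((c h)⁻¹ * c (h * q.out)) := by
    rw [map_prod]
    refine Finset.prod_congr rfl (fun q _ => ?_)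
    rw [hc, inv_mul_cancel_left]
  have h2 : ∏ q : G ⧸ T, c (h * q.out) = ∏ q : G ⧸ T, c q.out := by
    rw [← Equiv.prod_comp (MulAction.toPerm h) (fun q : G ⧸ T => c q.out)]
    refine Finset.prod_congr rfl (fun q _ => ?_)
    apply hcoset
    rw [MulAction.toPerm_apply, QuotientGroup.out_eq']
    conv_rhs => rw [← QuotientGroup.out_eq' q]
    rfl
  rw [h1, Finset.prod_mul_distrib, h2, Finset.prod_const, Finset.card_univ,
    Subgroup.index_eq_card, Nat.card_eq_fintype_card, mul_inv, inv_pow, inv_inv]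
  rw [mul_comm (c h ^ _), mul_inv_cancel_left]

/-- If moreover `|G:T|` is prime to `|N|`, the cocycle is a coboundary. -/
theorem cocycle_coboundary [Finite G] (T N : Subgroup G) [N.Normal] [IsMulCommutative N]
    (hcop : (Nat.card N).Coprime T.index)
    (c : G → N) (hc : ∀ g h, c (g * h) = c g * MulAut.conjNormal g (c h))
    (hT : ∀ s ∈ T, c s = 1) :
    ∃ z : N, ∀ h, c h = z * (MulAut.conjNormal h z)⁻¹ := by
  obtain ⟨w, hw⟩ := cocycle_pow_index T N c hc hT
  obtain ⟨z, hz⟩ := hcop.pow_left_bijective.2 w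
  refine ⟨z, fun h => hcop.pow_left_bijective.1 ?_⟩
  simp only at hz ⊢
  rw [hw, mul_pow, inv_pow, ← map_pow, hz]

end Cfsg.Agent.Lib.Helper85
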