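import Cfsg.Agent.Lib.Helper85.FusBasic
import Cfsg.Agent.Lib.Helper84.FusionKNorm4

set_option autoImplicit false

/-! Full subsystems on strongly closed "direct factors" (helper85). -/

namespace Cfsg.Agent.Lib.Helper85

open Cfsg Cfsg.FusionSystem Cfsg.Agent.Lib.Helper84

variable {Ω : Type*} [Group Ω] {S : Subgroup Ω}

theorem exists_mul_of_mem_sup {A B : Subgroup Ω} (hc : ∀ a ∈ A, ∀ b ∈ B, a * b = b * a) {g : Ω}
    (hg : g ∈ A ⊔ B) : ∃ a ∈ A, ∃ b ∈ B, g = a * b := by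
  let C : Subgroup Ω :=
    { carrier := {g | ∃ a ∈ A, ∃ b ∈ B, g = a * b}
      one_mem' := ⟨1, A.one_mem, 1, B.one_mem, by simp⟩
      mul_mem' := by
        rintro _ _ ⟨a, ha, b, hb, rfl⟩ ⟨a', ha', b', hb', rfl⟩
        refine ⟨a * a', A.mul_mem ha ha', b * b', B.mul_mem hb hb', ?_⟩
        calc a * b * (a' * b') = a * (b * a') * b' := by group
          _ = a * (a' * b) * b' := by rw [hc a' ha' b hb]
          _ = a * a' * (b * b') := by group
      inv_mem' := by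
        rintro _ ⟨a, ha, b, hb, rfl⟩
        refine ⟨a⁻¹, A.inv_mem ha, b⁻¹, B.inv_mem hb, ?_⟩
        rw [mul_inv_rev, hc a⁻¹ (A.inv_mem ha) b⁻¹ (B.inv_mem hb)] }
  have : A ⊔ B ≤ C := sup_le (fun a ha => ⟨a, ha, 1, B.one_mem, by simp⟩)
    (fun b hb => ⟨1, A.one_mem, b, hb, by simp⟩)
  exact this hg

/-- The full subsystem on a strongly closed subgroup `S₁` with `S = S₁ C_S(S₁)` is saturated. -/
theorem full_subsystem_saturated [Finite S] {p : ℕ} [Fact p.Prime] (F : FusionSystem S)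
    (hF : F.IsSaturated p) {S₁ : Subgroup Ω} (h₁ : F.StronglyClosed S₁)
    (hdec : ∀ g ∈ S, ∃ a ∈ S₁, ∃ z ∈ Subgroup.centralizer (S₁ : Set Ω), g = a * z)
    (R : FusionSystem S₁) (hR : ∀ P : Subgroup Ω, P ≤ S₁ → R.Hom P = F.Hom P) :
    R.IsSaturated p := by
  intro P hP
  obtain ⟨Q, ⟨φ, hφ, rfl⟩, hfa, hrec⟩ := hF P (hP.trans h₁.1)
  have hQ₁ : φ.range ≤ S₁ := by
    rintro _ ⟨x, rfl⟩
    exact h₁.2 P hP φ hφ x
  have hQS : φ.range ≤ S := hQ₁.trans h₁.1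
  refine ⟨φ.range, ⟨φ, by rw [hR P hP]; exact hφ, rfl⟩, ?_, hQ₁, ?_⟩
  · have e1 : R.autGroup φ.range = F.autGroup φ.range := by
      ext α
      rw [mem_autGroup_iff R hQ₁, mem_autGroup_iff F hQS]
      unfold Mor
      rw [hR _ hQ₁]
    have e2 : autInducedBy S₁ φ.range = autInducedBy S φ.range := by
      ext α
      rw [Helper84.mem_autInducedBy_iff, Helper84.mem_autInducedBy_iff]
      constructor
      · rintro ⟨g, hg, h⟩
        exact ⟨g, h₁.1 hg, h⟩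
      · rintro ⟨g, hg, h⟩
        obtain ⟨a, ha, z, hz, rfl⟩ := hdec g hg
        refine ⟨a, ha, fun x => ?_⟩
        rw [h x]
        have hzx : (x : Ω) * z = z * x := Subgroup.mem_centralizer_iff.1 hz x (hQ₁ x.2)
        calc a * z * (x : Ω) * (a * z)⁻¹ = a * (z * x) * z⁻¹ * a⁻¹ := by group
          _ = a * x * a⁻¹ := by rw [← hzx]; group
    unfold FusionSystem.IsFullyAutomized
    rw [e1, e2]
    exact ⟨hQ₁, hfa.2⟩
  · intro P' φ' hφ' hrange
    have hP' : P' ≤ S₁ := (R.le_of_mem hφ').1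
    have hφF : φ' ∈ F.Hom P' := by rw [← hR P' hP']; exact hφ'
    obtain ⟨ψ, hψ, hψ'⟩ := hrec.2 P' φ' hφF hrange
    have hle : extender S₁ P' φ' ≤ extender S P' φ' := by
      intro g hg
      rw [mem_extender_iff] at hg ⊢
      obtain ⟨h1, h2, h, hh, h3⟩ := hg
      exact ⟨h₁.1 h1, h2, h, h₁.1 hh, h3⟩
    have hle₁ : extender S₁ P' φ' ≤ S₁ := fun g hg => ((mem_extender_iff _ _ _ _).1 hg).1
    refine ⟨ψ.comp (Subgroup.inclusion hle), ?_, fun x hP hN => hψ' x hP (hle hN)⟩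
    rw [hR _ hle₁]
    exact Helper84.restrict_mem F hψ hle

/-- a strongly closed subgroup is mapped onto itself -/
theorem sc_surj [Finite S] {F : FusionSystem S} {Z : Subgroup Ω} (hZ : F.StronglyClosed Z)
    {X : Subgroup Ω} (hZX : Z ≤ X) {ψ : X →* Ω} (hψ : ψ ∈ F.Hom X) (z : Ω) (hz : z ∈ Z) :
    ∃ z' : Z, ψ (Subgroup.inclusion hZX z') = z := by
  have hfin : Finite Z := finite_of_le hZ.1
  have hr := Helper84.restrict_mem F hψ hZX
  let f : Z → Z := fun y => ⟨ψ (Subgroup.inclusion hZX y), hZ.2 Z le_rfl _ hr y⟩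
  have hinj : Function.Injective f := by
    intro a b hab
    exact F.injective_of_mem hr (congrArg Subtype.val hab)
  obtain ⟨z', hz'⟩ := (Finite.injective_iff_surjective.1 hinj) ⟨z, hz⟩
  exact ⟨z', congrArg Subtype.val hz'⟩

/-- A map whose source and image are centralized by the strongly closed subgroup `Z` extends to the
join with `Z`. -/
theorem exists_ext_sup_sc [Finite S] {p : ℕ} [Fact p.Prime] (F : FusionSystem S)
    (hF : F.IsSaturated p) {Q Z : Subgroup Ω} (hZ : F.StronglyClosed Z) {ψ : Q →* Ω}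
    (hψ : ψ ∈ F.Hom Q) (hQ : Z ≤ centralizerIn S Q) (hQ' : Z ≤ centralizerIn S ψ.range) :
    ∃ ψ' ∈ F.Hom (Q ⊔ Z), (∀ x : Q, ψ' (Subgroup.inclusion le_sup_left x) = ψ x) ∧
      ∀ z : Z, ψ' (Subgroup.inclusion le_sup_right z) ∈ Z := by
  have hQS : Q ≤ S := (F.le_of_mem hψ).1
  have hrS : ψ.range ≤ S := range_le F hψ
  obtain ⟨Q', ⟨χ, hχ, rfl⟩, -, hrec⟩ := hF ψ.range hrS
  -- extension of `χ`
  obtain ⟨b, hb, hb'⟩ := hrec.2 _ χ hχ rfl
  have hleb : ψ.range ⊔ Z ≤ extender S ψ.range χ :=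
    sup_le (le_extender hrS _ (F.le_of_mem hχ).2) (hQ'.trans (centralizerIn_le_extender _))
  have hb₀ := Helper84.restrict_mem F hb hleb
  set b₀ := b.comp (Subgroup.inclusion hleb) with hb₀def
  -- extension of `χ ∘ ψ`
  have hχψ := F.comp_mem hψ hχ (fun x => ⟨x, rfl⟩)
  set ξ := χ.comp (ψ.codRestrict ψ.range (fun x => ⟨x, rfl⟩)) with hξ
  have hξr : ξ.range = χ.range := by
    ext y
    constructor
    · rintro ⟨x, rfl⟩
      exact ⟨_, rfl⟩
    · rintro ⟨⟨_, x, rfl⟩, rfl⟩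
      exact ⟨x, rfl⟩
  obtain ⟨a, ha, ha'⟩ := hrec.2 _ ξ hχψ hξr
  have hlea : Q ⊔ Z ≤ extender S Q ξ :=
    sup_le (le_extender hQS _ (F.le_of_mem hχψ).2) (hQ.trans (centralizerIn_le_extender _))
  have ha₀ := Helper84.restrict_mem F ha hlea
  set a₀ := a.comp (Subgroup.inclusion hlea) with ha₀def
  obtain ⟨c, hc, hc1, -, -⟩ := inv_mem' F hb₀ rfl
  have haQ : ∀ x : Q, a₀ (Subgroup.inclusion le_sup_left x) =
      b₀ (Subgroup.inclusion le_sup_left ⟨ψ x, ⟨x, rfl⟩⟩) := by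
    intro x
    have e1 : a₀ (Subgroup.inclusion le_sup_left x) = ξ x := ha' x x.2 _
    have e2 : b₀ (Subgroup.inclusion le_sup_left ⟨ψ x, ⟨x, rfl⟩⟩) = χ ⟨ψ x, ⟨x, rfl⟩⟩ :=
      hb' _ ⟨x, rfl⟩ _
    rw [e1, e2]
    rfl
  have haZ : ∀ z : Z, ∃ z' : Z, a₀ (Subgroup.inclusion le_sup_right z) =
      b₀ (Subgroup.inclusion le_sup_right z') := by
    intro z
    have h1 : a₀ (Subgroup.inclusion le_sup_right z) ∈ Z :=
      hZ.2 Z le_rfl _ (Helper84.restrict_mem F ha₀ le_sup_right) z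
    obtain ⟨z', hz'⟩ := sc_surj hZ le_sup_right hb₀ _ h1
    exact ⟨z', hz'.symm⟩
  have hmaps : ∀ x, a₀ x ∈ b₀.range := by
    intro x
    have := map_sup_mem (P' := b₀.range) (Q' := b₀.range) a₀
      (fun x => by rw [haQ]; exact ⟨_, rfl⟩)
      (fun z => by obtain ⟨z', hz'⟩ := haZ z; rw [hz']; exact ⟨_, rfl⟩) x
    rwa [sup_idem] at this
  refine ⟨c.comp (a₀.codRestrict b₀.range hmaps), F.comp_mem ha₀ hc hmaps, fun x => ?_, fun z => ?_⟩
  · show c ⟨a₀ (Subgroup.inclusion le_sup_left x), _⟩ = ψ x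
    have := hc1 (Subgroup.inclusion le_sup_left ⟨ψ x, ⟨x, rfl⟩⟩) ⟨_, rfl⟩
    simp only [haQ]
    exact this
  · show c ⟨a₀ (Subgroup.inclusion le_sup_right z), _⟩ ∈ Z
    obtain ⟨z', hz'⟩ := haZ z
    have := hc1 (Subgroup.inclusion le_sup_right z') ⟨_, rfl⟩
    simp only [hz']
    rw [this]
    exact z'.2

end Cfsg.Agent.Lib.Helper85
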