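import Cfsg.Agent.Lib.Helper85.FusDirFactor

set_option autoImplicit false

/-! The maps fixing a strongly closed direct factor are invariant (helper85). -/

namespace Cfsg.Agent.Lib.Helper85

open Cfsg Cfsg.FusionSystem Cfsg.Agent.Lib.Helper84

variable {Ω : Type*} [Group Ω] {S : Subgroup Ω}

theorem le_centralizerIn_of_commute {A B : Subgroup Ω} (hA : A ≤ S)
    (hc : ∀ a ∈ A, ∀ b ∈ B, a * b = b * a) : A ≤ centralizerIn S B := by
  intro a ha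
  refine ⟨hA ha, ?_⟩
  apply Subgroup.mem_centralizer_iff.2
  intro b hb
  exact (hc a ha b hb).symm

theorem centralizerHom_transport [Finite S] {p : ℕ} [Fact p.Prime] (F : FusionSystem S)
    (hF : F.IsSaturated p) {Z S₁ : Subgroup Ω} (hZ : F.StronglyClosed Z)
    (h₁ : F.StronglyClosed S₁) (hc : ∀ a ∈ S₁, ∀ b ∈ Z, a * b = b * a)
    {P Q : Subgroup Ω} (hPQ : P ≤ Q) (hQ : Q ≤ S₁) {φ : P →* Ω} (hφ : φ ∈ F.centralizerHom Z P)
    (hφQ : ∀ x, φ x ∈ Q) {ψ : Q →* Ω} (hψ : ψ ∈ F.Hom Q) :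
    ∃ χ ∈ F.centralizerHom Z ((P.subgroupOf Q).map ψ),
      ∀ (x : P) (hx : ψ (Subgroup.inclusion hPQ x) ∈ (P.subgroupOf Q).map ψ),
        χ ⟨ψ (Subgroup.inclusion hPQ x), hx⟩ = ψ ⟨φ x, hφQ x⟩ := by
  have hrange : ψ.range ≤ S₁ := by
    rintro _ ⟨x, rfl⟩
    exact h₁.2 Q hQ ψ hψ x
  have hZ1 : Z ≤ centralizerIn S Q :=
    le_centralizerIn_of_commute hZ.1 (fun b hb a ha => (hc a (hQ ha) b hb).symm)
  have hZ2 : Z ≤ centralizerIn S ψ.range :=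
    le_centralizerIn_of_commute hZ.1 (fun b hb a ha => (hc a (hrange ha) b hb).symm)
  obtain ⟨ψ', hψ', hψ'Q, hψ'Z⟩ := exists_ext_sup_sc F hF hZ hψ hZ1 hZ2
  obtain ⟨hφF, hPc, hφc, φ', hφ', hφ'P, hφ'Z⟩ := hφ
  have hle1 : P ⊔ Z ≤ Q ⊔ Z := sup_le_sup_right hPQ Z
  have hu := Helper84.restrict_mem F hψ' hle1
  set u := ψ'.comp (Subgroup.inclusion hle1) with hudef
  obtain ⟨c, hcF, hc1, hc2, -⟩ := inv_mem' F hu rfl
  obtain ⟨P₁, hP₁⟩ : ∃ P₁, (P.subgroupOf Q).map ψ = P₁ := ⟨_, rfl⟩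
  rw [hP₁]
  have huP : ∀ x : P, u (Subgroup.inclusion le_sup_left x) = ψ (Subgroup.inclusion hPQ x) :=
    fun x => hψ'Q (Subgroup.inclusion hPQ x)
  have hP₁S₁ : P₁ ≤ S₁ := by
    rw [← hP₁]
    rintro _ ⟨x, -, rfl⟩
    exact hrange ⟨x, rfl⟩
  have hle2 : P₁ ⊔ Z ≤ u.range := by
    refine sup_le ?_ ?_
    · rw [← hP₁]
      rintro _ ⟨x, hx, rfl⟩
      exact ⟨Subgroup.inclusion le_sup_left ⟨x, hx⟩, huP ⟨x, hx⟩⟩
    · intro z hz
      obtain ⟨z', hz'⟩ := sc_surj hZ le_sup_right hu z hz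
      exact ⟨_, hz'⟩
  have hv := Helper84.restrict_mem F hcF hle2
  set v := c.comp (Subgroup.inclusion hle2) with hvdef
  have hvm : ∀ y, v y ∈ P ⊔ Z := by
    intro y
    rw [← hc2]
    exact ⟨_, rfl⟩
  have hw := F.comp_mem hv hφ' hvm
  set w := φ'.comp (v.codRestrict (P ⊔ Z) hvm) with hwdef
  have hφ'm : ∀ y, φ' y ∈ Q ⊔ Z :=
    map_sup_mem φ' (fun x => by rw [hφ'P]; exact hφQ x) (fun z => by rw [hφ'Z]; exact z.2)
  have hwm : ∀ y, w y ∈ Q ⊔ Z := fun y => hφ'm _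
  have hχ' := F.comp_mem hw hψ' hwm
  set χ' := ψ'.comp (w.codRestrict (Q ⊔ Z) hwm) with hχ'def
  have hχ := Helper84.restrict_mem F hχ' (le_sup_left : P₁ ≤ P₁ ⊔ Z)
  -- values
  have hvP : ∀ (x : P) (hx : ψ (Subgroup.inclusion hPQ x) ∈ P₁ ⊔ Z),
      v ⟨ψ (Subgroup.inclusion hPQ x), hx⟩ = x := by
    intro x hx
    have := hc1 (Subgroup.inclusion le_sup_left x) ⟨_, rfl⟩
    simp only [huP] at this
    exact this
  have hχ'P : ∀ (x : P) (hx : ψ (Subgroup.inclusion hPQ x) ∈ P₁ ⊔ Z),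
      χ' ⟨ψ (Subgroup.inclusion hPQ x), hx⟩ = ψ ⟨φ x, hφQ x⟩ := by
    intro x hx
    have e1 : (⟨v ⟨ψ (Subgroup.inclusion hPQ x), hx⟩, hvm _⟩ : ↥(P ⊔ Z)) =
        Subgroup.inclusion le_sup_left x := Subtype.ext (hvP x hx)
    have e2 : w ⟨ψ (Subgroup.inclusion hPQ x), hx⟩ = φ x := by
      show φ' ⟨v ⟨ψ (Subgroup.inclusion hPQ x), hx⟩, hvm _⟩ = φ x
      rw [e1, hφ'P]
    have e3 : (⟨w ⟨ψ (Subgroup.inclusion hPQ x), hx⟩, hwm _⟩ : ↥(Q ⊔ Z)) =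
        Subgroup.inclusion le_sup_left ⟨φ x, hφQ x⟩ := Subtype.ext e2
    show ψ' ⟨w ⟨ψ (Subgroup.inclusion hPQ x), hx⟩, hwm _⟩ = _
    rw [e3, hψ'Q]
  have hχ'Z : ∀ z : Z, χ' (Subgroup.inclusion le_sup_right z) = z := by
    intro z
    obtain ⟨z', hz'⟩ := sc_surj hZ le_sup_right hu z z.2
    have e0 : v (Subgroup.inclusion le_sup_right z) = z' := by
      have := hc1 (Subgroup.inclusion le_sup_right z') ⟨_, rfl⟩
      simp only [hz'] at this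
      exact this
    have e1 : (⟨v (Subgroup.inclusion le_sup_right z), hvm _⟩ : ↥(P ⊔ Z)) =
        Subgroup.inclusion le_sup_right z' := Subtype.ext e0
    have e2 : w (Subgroup.inclusion le_sup_right z) = z' := by
      show φ' ⟨v (Subgroup.inclusion le_sup_right z), hvm _⟩ = z'
      rw [e1, hφ'Z]
    have e3 : (⟨w (Subgroup.inclusion le_sup_right z), hwm _⟩ : ↥(Q ⊔ Z)) =
        Subgroup.inclusion hle1 (Subgroup.inclusion le_sup_right z') := Subtype.ext e2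
    show ψ' ⟨w (Subgroup.inclusion le_sup_right z), hwm _⟩ = _
    rw [e3]
    exact hz'
  have hS₁c : S₁ ≤ centralizerIn S Z := le_centralizerIn_of_commute h₁.1 hc
  refine ⟨χ'.comp (Subgroup.inclusion le_sup_left), ⟨hχ, hP₁S₁.trans hS₁c,
    fun y => hS₁c (h₁.2 P₁ hP₁S₁ _ hχ y), χ', hχ', fun _ => rfl, hχ'Z⟩, fun x hx => ?_⟩
  exact hχ'P x (le_sup_left (a := P₁) hx)

end Cfsg.Agent.Lib.Helper85
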