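import Cfsg.Agent.Lib.Helper85.SylIn3
import Cfsg.Agent.Lib.Helper20.PResidual
import Cfsg.Prelude.Def_BaumannBlocks

set_option autoImplicit false

/-! Elementary lemmas on `p`-parts and `p'`-parts, `O^p` and Sylow subgroups (helper85). -/

namespace Cfsg.Agent.Lib.Helper85

open Cfsg

variable {X : Type*} [Group X]

/-- decomposition of an element in its `p`-part and its `p'`-part. -/
theorem exists_pp_decomp [Finite X] {p : ℕ} [hp : Fact p.Prime] (g : X) :
    ∃ a b : ℕ, g = g ^ a * g ^ b ∧ (∃ i : ℕ, (g ^ a) ^ p ^ i = 1) ∧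
      Nat.Coprime (orderOf (g ^ b)) p := by
  obtain ⟨i, m, hm, hgm⟩ := Nat.exists_eq_pow_mul_and_not_dvd (orderOf_pos g).ne' p hp.out.ne_one
  have hcop : Nat.Coprime (p ^ i) m :=
    Nat.Coprime.pow_left _ ((Nat.Prime.coprime_iff_not_dvd hp.out).mpr hm)
  obtain ⟨a, ha1, ha2⟩ := Nat.chineseRemainder hcop 1 0
  obtain ⟨b, hb1, hb2⟩ := Nat.chineseRemainder hcop 0 1
  refine ⟨a, b, ?_, ⟨i, ?_⟩, ?_⟩
  · rw [← pow_add]
    have h1 : a + b ≡ 1 [MOD p ^ i] := by simpa using ha1.add hb1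
    have h2 : a + b ≡ 1 [MOD m] := by simpa using ha2.add hb2
    have h3 : a + b ≡ 1 [MOD orderOf g] := by
      rw [hgm]
      exact (Nat.modEq_and_modEq_iff_modEq_mul hcop).mp ⟨h1, h2⟩
    have := pow_eq_pow_iff_modEq.mpr h3
    rw [this, pow_one]
  · rw [← pow_mul]
    apply orderOf_dvd_iff_pow_eq_one.mp
    rw [hgm, mul_comm a]
    exact Nat.mul_dvd_mul_left _ ((Nat.modEq_zero_iff_dvd).mp ha2)
  · have h1 : (g ^ b) ^ m = 1 := by
      rw [← pow_mul]
      apply orderOf_dvd_iff_pow_eq_one.mp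
      rw [hgm]
      exact Nat.mul_dvd_mul_right ((Nat.modEq_zero_iff_dvd).mp hb1) _
    have h2 : orderOf (g ^ b) ∣ m := orderOf_dvd_of_pow_eq_one h1
    exact Nat.Coprime.coprime_dvd_left h2
      ((Nat.Prime.coprime_iff_not_dvd hp.out).mpr hm).symm

theorem mul_pow_mem_of_normalizes {N : Subgroup X} {a e : X} (ha : ∀ n ∈ N, a * n * a⁻¹ ∈ N)
    (he : e ∈ N) (k : ℕ) : ∃ e' ∈ N, (e * a) ^ k = e' * a ^ k := by
  induction k with
  | zero => exact ⟨1, N.one_mem, by simp⟩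
  | succ k ih =>
    obtain ⟨e', he', h⟩ := ih
    refine ⟨e * (a * e' * a⁻¹), N.mul_mem he (ha e' he'), ?_⟩
    rw [pow_succ', h, pow_succ']
    group

theorem mem_of_pow_mem_coprimePP {N : Subgroup X} {a : X} {m n : ℕ} (hm : a ^ m ∈ N)
    (hn : a ^ n ∈ N) (h : Nat.Coprime m n) : a ∈ N := by
  have h1 : a ^ (Nat.gcd m n : ℤ) ∈ N := by
    rw [Nat.gcd_eq_gcd_ab, zpow_add, zpow_mul, zpow_mul]
    refine N.mul_mem (N.zpow_mem ?_ _) (N.zpow_mem ?_ _)
    · simpa using hm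
    · simpa using hn
  rw [h] at h1
  simpa using h1

theorem eq_one_of_pow_coprime {a : X} {m n : ℕ} (hm : a ^ m = 1) (hn : a ^ n = 1)
    (h : Nat.Coprime m n) : a = 1 := by
  have := mem_of_pow_mem_coprimePP (N := (⊥ : Subgroup X)) (a := a) (by simpa using hm)
    (by simpa using hn) h
  simpa using this

/-- if `g x g⁻¹ = y x` and `g` centralizes `y` then `g ^ k x g ^ (-k) = y ^ k x`. -/
theorem pow_conj_of_fixed {g x y : X} (h1 : g * x * g⁻¹ = y * x) (h2 : g * y * g⁻¹ = y) (k : ℕ) :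
    g ^ k * x * (g ^ k)⁻¹ = y ^ k * x := by
  induction k with
  | zero => simp
  | succ k ih =>
    have h3 : g * y ^ k * g⁻¹ = y ^ k := by
      have := conj_pow (a := g) (b := y) (i := k)
      rw [h2] at this
      exact this.symm
    calc g ^ (k + 1) * x * (g ^ (k + 1))⁻¹ = g * (g ^ k * x * (g ^ k)⁻¹) * g⁻¹ := by
          rw [pow_succ']; group
      _ = g * (y ^ k * x) * g⁻¹ := by rw [ih]
      _ = (g * y ^ k * g⁻¹) * (g * x * g⁻¹) := by group
      _ = y ^ (k + 1) * x := by rw [h3, h1, pow_succ, mul_assoc]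

/-- a `p`-element of `A` normalizing a Sylow `p`-subgroup `R` of `A` lies in `R`. -/
theorem SylIn.mem_of_normalizing [Finite X] {p : ℕ} [hp : Fact p.Prime] {R A : Subgroup X}
    (h : SylIn p R A) (hRA : R ≤ A) {a : X} (haA : a ∈ A)
    (haN : a ∈ Subgroup.normalizer (R : Set X)) {k : ℕ} (hk : a ^ p ^ k = 1) : a ∈ R := by
  have hRp := h.isPGroup hRA
  have hz : Subgroup.zpowers a ≤ Subgroup.normalizer (R : Set X) := by
    rw [Subgroup.zpowers_le]; exact haN
  have hzp : IsPGroup p (Subgroup.zpowers a) := by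
    rintro ⟨y, hy⟩
    obtain ⟨n, rfl⟩ := Subgroup.mem_zpowers_iff.mp hy
    refine ⟨k, Subtype.ext ?_⟩
    show (a ^ n) ^ p ^ k = 1
    rw [← zpow_natCast, ← zpow_mul, mul_comm, zpow_mul, zpow_natCast, hk, one_zpow]
  have hsup : IsPGroup p (Subgroup.zpowers a ⊔ R : Subgroup X) :=
    IsPGroup.to_sup_of_normal_right' hzp hRp hz
  have hle : (Subgroup.zpowers a ⊔ R : Subgroup X) ≤ A :=
    sup_le (by rw [Subgroup.zpowers_le]; exact haA) hRA
  have h1 := card_le_of_isPGroup hle hsup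
  rw [← (sylIn_iff_card hRA).mp h] at h1
  have h2 : R = Subgroup.zpowers a ⊔ R := Subgroup.eq_of_le_of_card_ge le_sup_right h1
  rw [h2]
  exact (le_sup_left : Subgroup.zpowers a ≤ _) (Subgroup.mem_zpowers a)

/-- a normal `p`-subgroup lies in every Sylow `p`-subgroup. -/
theorem SylIn.normal_le [Finite X] {p : ℕ} [hp : Fact p.Prime] {R A N : Subgroup X}
    (h : SylIn p R A) (hNA : N ≤ A) (hN : IsPGroup p N)
    (hn : ∀ a ∈ A, ∀ n ∈ N, a⁻¹ * n * a ∈ N) : N ≤ R := by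
  obtain ⟨g, hg, hgN⟩ := h.exists_conj_le hNA hN
  intro n hn'
  have h1 := hn g hg n hn'
  have h2 : g * (g⁻¹ * n * g) * g⁻¹ ∈ R := hgN ⟨_, h1, rfl⟩
  have e : g * (g⁻¹ * n * g) * g⁻¹ = n := by group
  rwa [e] at h2

theorem mem_pResidualOf {p : ℕ} {H : Subgroup X} {g : X} (hg : g ∈ H)
    (hc : Nat.Coprime (orderOf g) p) : g ∈ pResidualOf p H := by
  refine ⟨⟨g, hg⟩, Subgroup.subset_closure ?_, rfl⟩
  show Nat.Coprime (orderOf (⟨g, hg⟩ : H)) p
  rwa [← Subgroup.orderOf_coe]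

theorem pResidualOf_le (p : ℕ) (H : Subgroup X) : pResidualOf p H ≤ H :=
  Subgroup.map_subtype_le _

theorem pResidualOf_le_of_forall {p : ℕ} {H N : Subgroup X}
    (h : ∀ g ∈ H, Nat.Coprime (orderOf g) p → g ∈ N) : pResidualOf p H ≤ N := by
  unfold pResidualOf pResidual
  rw [MonoidHom.map_closure, Subgroup.closure_le]
  rintro _ ⟨x, hx, rfl⟩
  refine h _ x.2 ?_
  have : Nat.Coprime (orderOf x) p := hx
  rwa [← Subgroup.orderOf_coe] at this

theorem pResidualOf_conj_mem {p : ℕ} {H : Subgroup X} {g : X}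
    (hg : ∀ h ∈ H, g * h * g⁻¹ ∈ H) {x : X} (hx : x ∈ pResidualOf p H) :
    g * x * g⁻¹ ∈ pResidualOf p H := by
  have : pResidualOf p H ≤ (pResidualOf p H).comap (MulAut.conj g).toMonoidHom := by
    apply pResidualOf_le_of_forall
    intro h hh hc
    show g * h * g⁻¹ ∈ pResidualOf p H
    refine mem_pResidualOf (hg h hh) ?_
    have : orderOf (g * h * g⁻¹) = orderOf h :=
      (MulEquiv.orderOf_eq (MulAut.conj g) h)
    rwa [this]
  exact this hx

/-- `H = O^p(H) P` for a Sylow `p`-subgroup `P` of `H`. -/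
theorem SylIn.exists_mul_pResidualOf [Finite X] {p : ℕ} [hp : Fact p.Prime] {P H : Subgroup X}
    (h : SylIn p P H) {g : X} (hg : g ∈ H) :
    ∃ k ∈ pResidualOf p H, ∃ s ∈ P, s ∈ H ∧ g = k * s := by
  obtain ⟨R, hR⟩ := h
  have hn : (pResidual p H).Normal := Cfsg.Agent.Lib.Helper20.pResidual_normal p H
  have hq : IsPGroup p (H ⧸ pResidual p H) :=
    Cfsg.Agent.Lib.Helper20.pResidual_quotient_isPGroup p H
  have htop : pResidual p H ⊔ (R : Subgroup H) = ⊤ := by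
    rw [← Subgroup.index_eq_one]
    have h1 : (pResidual p H ⊔ (R : Subgroup H)).index ∣ (pResidual p H).index :=
      Subgroup.index_dvd_of_le le_sup_left
    have h2 : (pResidual p H ⊔ (R : Subgroup H)).index ∣ (R : Subgroup H).index :=
      Subgroup.index_dvd_of_le le_sup_right
    obtain ⟨n, hn'⟩ := IsPGroup.iff_card.mp hq
    rw [Subgroup.index_eq_card (pResidual p H), hn'] at h1
    obtain ⟨j, -, hj⟩ := (Nat.dvd_prime_pow hp.out).mp h1
    rcases Nat.eq_zero_or_pos j with rfl | hjpos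
    · simpa using hj
    · exfalso
      apply R.not_dvd_index
      refine dvd_trans ?_ h2
      rw [hj]
      exact dvd_pow_self p hjpos.ne'
  have hmem : (⟨g, hg⟩ : H) ∈ pResidual p H ⊔ (R : Subgroup H) := by rw [htop]; trivial
  obtain ⟨k, hk, s, hs, hks⟩ := Subgroup.mem_sup_of_normal_left.mp hmem
  rw [hR] at hs
  exact ⟨k, ⟨k, hk, rfl⟩, s, hs, s.2, (congrArg Subtype.val hks).symm⟩

end Cfsg.Agent.Lib.Helper85
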