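import Cfsg.Agent.Lib.Helper85.GrpPP
import Cfsg.Agent.Lib.Helper85.SylIn2
import Cfsg.Agent.Lib.Helper21.TransferLemmas
import Cfsg.Agent.Lib.Lead.Cores

set_option autoImplicit false

/-! Group theoretic part of the correspondence between normal subsystems of a constrained system
and normal subgroups of its model (helper85). -/

namespace Cfsg.Agent.Lib.Helper85

open Cfsg Cfsg.FusionSystem

variable {G : Type*} [Group G]

/-- `C_G(Q/Q₀)`. -/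
def cenQuot (Q Q₀ : Subgroup G) [hQ : Q.Normal] [hQ₀ : Q₀.Normal] : Subgroup G where
  carrier := {g | ∀ x ∈ Q, g * x * g⁻¹ * x⁻¹ ∈ Q₀}
  one_mem' := fun x _ => by simp [Q₀.one_mem]
  mul_mem' := by
    intro g h hg hh x hx
    have h1 := hg (h * x * h⁻¹) (hQ.conj_mem x hx h)
    have h2 := Q₀.mul_mem h1 (hh x hx)
    have e : g * (h * x * h⁻¹) * g⁻¹ * (h * x * h⁻¹)⁻¹ * (h * x * h⁻¹ * x⁻¹) =
        g * h * x * (g * h)⁻¹ * x⁻¹ := by group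
    rwa [e] at h2
  inv_mem' := by
    intro g hg x hx
    have h0 : g⁻¹ * x * g ∈ Q := by simpa using hQ.conj_mem x hx g⁻¹
    have h1 := Q₀.inv_mem (hg (g⁻¹ * x * g) h0)
    have e : (g * (g⁻¹ * x * g) * g⁻¹ * (g⁻¹ * x * g)⁻¹)⁻¹ = g⁻¹ * x * g⁻¹⁻¹ * x⁻¹ := by group
    rwa [e] at h1

theorem mem_cenQuot {Q Q₀ : Subgroup G} [Q.Normal] [Q₀.Normal] {g : G} :
    g ∈ cenQuot Q Q₀ ↔ ∀ x ∈ Q, g * x * g⁻¹ * x⁻¹ ∈ Q₀ := Iff.rfl

instance cenQuot_normal (Q Q₀ : Subgroup G) [hQ : Q.Normal] [hQ₀ : Q₀.Normal] :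
    (cenQuot Q Q₀).Normal := by
  constructor
  intro g hg a x hx
  have h0 : a⁻¹ * x * a ∈ Q := by simpa using hQ.conj_mem x hx a⁻¹
  have h1 := hQ₀.conj_mem _ (hg _ h0) a
  have e : a * (g * (a⁻¹ * x * a) * g⁻¹ * (a⁻¹ * x * a)⁻¹) * a⁻¹ =
      a * g * a⁻¹ * x * (a * g * a⁻¹)⁻¹ * x⁻¹ := by group
  rwa [e] at h1

/-- the stabilizer of the chain `1 ≤ Q₀ ≤ Q`. -/
theorem chain_le_of_centric [Finite G] {p : ℕ} [Fact p.Prime] (Q₀ : Subgroup G) [hQ₀ : Q₀.Normal]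
    (hQ₀Q : Q₀ ≤ pCore p G)
    (hG : Subgroup.centralizer ((pCore p G : Subgroup G) : Set G) ≤ pCore p G) :
    cenQuot (pCore p G) Q₀ ⊓ Subgroup.centralizer (Q₀ : Set G) ≤ pCore p G := by
  have hn : (cenQuot (pCore p G) Q₀ ⊓ Subgroup.centralizer (Q₀ : Set G)).Normal := inferInstance
  apply Cfsg.Agent.Lib.Lead.le_pCore hn
  have hQp := Cfsg.Agent.Lib.Lead.pCore_isPGroup p G
  obtain ⟨n, hn'⟩ := IsPGroup.iff_card.mp (hQp.to_le hQ₀Q)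
  rintro ⟨g, hg1, hg2⟩
  -- `g ^ |Q₀|` centralizes `Q`
  have h1 : g ^ p ^ n ∈ pCore p G := by
    apply hG
    apply Subgroup.mem_centralizer_iff.2
    intro x hx
    have hy := hg1 x hx
    have e1 : g * x * g⁻¹ = (g * x * g⁻¹ * x⁻¹) * x := by group
    have e2 : g * (g * x * g⁻¹ * x⁻¹) * g⁻¹ = g * x * g⁻¹ * x⁻¹ := by
      have := (Subgroup.mem_centralizer_iff.1 hg2) _ hy
      rw [← this]; group
    have e3 := pow_conj_of_fixed e1 e2 (p ^ n)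
    have e4 : (g * x * g⁻¹ * x⁻¹) ^ p ^ n = 1 := by
      have : ((⟨_, hy⟩ : Q₀)) ^ Nat.card Q₀ = 1 := pow_card_eq_one'
      rw [hn'] at this
      exact congrArg (Subtype.val : Q₀ → G) this
    rw [e4, one_mul] at e3
    calc x * g ^ p ^ n = (g ^ p ^ n * x * (g ^ p ^ n)⁻¹) * g ^ p ^ n := by rw [e3]
      _ = g ^ p ^ n * x := by group
  obtain ⟨k, hk⟩ := hQp ⟨_, h1⟩
  refine ⟨n + k, Subtype.ext ?_⟩
  have : (g ^ p ^ n) ^ p ^ k = 1 := congrArg Subtype.val hk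
  show g ^ p ^ (n + k) = 1
  rw [pow_add, pow_mul, this]

section setting

variable [Finite G] {p : ℕ} [Fact p.Prime] (S : Sylow p G) {T : Subgroup G}

theorem sylIn_top : SylIn p (S : Subgroup G) ⊤ := by
  rw [sylIn_iff_card le_top, Subgroup.card_top]
  exact S.card_eq_multiplicity

theorem inf_normal_of_sc
    (hsc : ∀ t ∈ T, ∀ g : G, g * t * g⁻¹ ∈ (S : Subgroup G) → g * t * g⁻¹ ∈ T) :
    (pCore p G ⊓ T).Normal := by
  constructor
  intro n hn g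
  have h1 : g * n * g⁻¹ ∈ pCore p G :=
    (Cfsg.Agent.Lib.Lead.pCore_normal' p G).conj_mem n hn.1 g
  exact ⟨h1, hsc n hn.2 g (Cfsg.Agent.Lib.Lead.pCore_le_sylow S h1)⟩

theorem le_cenQuot_of_sc (hTS : T ≤ S)
    (hsc : ∀ t ∈ T, ∀ g : G, g * t * g⁻¹ ∈ (S : Subgroup G) → g * t * g⁻¹ ∈ T)
    [(pCore p G ⊓ T).Normal] : T ≤ cenQuot (pCore p G) (pCore p G ⊓ T) := by
  intro t ht x hx
  have hxS : x ∈ (S : Subgroup G) := Cfsg.Agent.Lib.Lead.pCore_le_sylow S hx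
  constructor
  · exact (pCore p G).mul_mem ((Cfsg.Agent.Lib.Lead.pCore_normal' p G).conj_mem x hx t)
      ((pCore p G).inv_mem hx)
  · have h1 : x * t⁻¹ * x⁻¹ ∈ T := hsc _ (T.inv_mem ht) x
      ((S : Subgroup G).mul_mem ((S : Subgroup G).mul_mem hxS
        ((S : Subgroup G).inv_mem (hTS ht))) ((S : Subgroup G).inv_mem hxS))
    have h2 := T.mul_mem ht h1
    have e : t * (x * t⁻¹ * x⁻¹) = t * x * t⁻¹ * x⁻¹ := by group
    rwa [e] at h2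

theorem centralizerIn_le_of_sc (hTS : T ≤ S)
    (hsc : ∀ t ∈ T, ∀ g : G, g * t * g⁻¹ ∈ (S : Subgroup G) → g * t * g⁻¹ ∈ T)
    (hG : Subgroup.centralizer ((pCore p G : Subgroup G) : Set G) ≤ pCore p G) :
    centralizerIn T (pCore p G ⊓ T) ≤ pCore p G ⊓ T := by
  haveI := inf_normal_of_sc S hsc
  intro x hx
  exact ⟨chain_le_of_centric _ inf_le_left hG ⟨le_cenQuot_of_sc S hTS hsc hx.1, hx.2⟩, hx.1⟩

end setting

end Cfsg.Agent.Lib.Helper85
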