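import Cfsg.Agent.Lib.Helper85.NormModelGrp

set_option autoImplicit false

/-! The normal subgroup `H = O^p(H₁) T` (helper85). -/

namespace Cfsg.Agent.Lib.Helper85

open Cfsg Cfsg.FusionSystem

variable {G : Type*} [Group G] [Finite G] {p : ℕ} [Fact p.Prime] (S : Sylow p G) (T : Subgroup G)
  [hN : (pCore p G ⊓ T).Normal] (A : Subgroup (MulAut ↥(pCore p G ⊓ T)))

/-- the conjugation action on `Q₀ = O_p(G) ∩ T`. -/
abbrev rho (p : ℕ) (T : Subgroup G) [(pCore p G ⊓ T).Normal] : G →* MulAut ↥(pCore p G ⊓ T) :=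
  MulAut.conjNormal

structure NMData : Prop where
  hTS : T ≤ S
  hsc : ∀ t ∈ T, ∀ g : G, g * t * g⁻¹ ∈ (S : Subgroup G) → g * t * g⁻¹ ∈ T
  hG : Subgroup.centralizer ((pCore p G : Subgroup G) : Set G) ≤ pCore p G
  hAn : ∀ g : G, ∀ a ∈ A, rho p T g * a * (rho p T g)⁻¹ ∈ A
  hsyl : SylIn p (T.map (rho p T)) A
  hTA : T.map (rho p T) ≤ A
  hsurj : ∀ a ∈ A, ∃ g ∈ cenQuot (pCore p G) (pCore p G ⊓ T), rho p T g = a

/-- `H₁`: the elements of `C_G(Q/Q₀)` inducing an element of `A` on `Q₀`. -/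
def modH1 : Subgroup G := cenQuot (pCore p G) (pCore p G ⊓ T) ⊓ A.comap (rho p T)

/-- `H = O^p(H₁) T`. -/
def modH : Subgroup G := pResidualOf p (modH1 T A) ⊔ T

variable {S T A}

theorem rho_eq_one_iff {c : G} :
    rho p T c = 1 ↔ c ∈ Subgroup.centralizer ((pCore p G ⊓ T : Subgroup G) : Set G) := by
  constructor
  · intro h
    apply Subgroup.mem_centralizer_iff.2
    intro q hq
    have h1 : ((rho p T c ⟨q, hq⟩ : ↥(pCore p G ⊓ T)) : G) = q := by rw [h]; rfl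
    have h2 : c * q * c⁻¹ = q := h1
    calc q * c = (c * q * c⁻¹) * c := by rw [h2]
      _ = c * q := by group
  · intro h
    ext q
    show c * (q : G) * c⁻¹ = q
    rw [← (Subgroup.mem_centralizer_iff.1 h) q q.2]
    group

theorem NMData.modH1_normal (d : NMData S T A) : (modH1 T A).Normal := by
  constructor
  intro n hn g
  refine ⟨(cenQuot_normal _ _).conj_mem n hn.1 g, ?_⟩
  show rho p T (g * n * g⁻¹) ∈ A
  rw [map_mul, map_mul, map_inv]
  exact d.hAn g _ hn.2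

theorem NMData.le_modH1 (d : NMData S T A) : T ≤ modH1 T A :=
  fun t ht => ⟨le_cenQuot_of_sc S d.hTS d.hsc ht, d.hTA ⟨t, ht, rfl⟩⟩

theorem NMData.conj_mem (d : NMData S T A) {s t : G} (hs : s ∈ (S : Subgroup G)) (ht : t ∈ T) :
    s * t * s⁻¹ ∈ T :=
  d.hsc t ht s ((S : Subgroup G).mul_mem ((S : Subgroup G).mul_mem hs (d.hTS ht))
    ((S : Subgroup G).inv_mem hs))

theorem NMData.sylIn_modH1 (d : NMData S T A) :
    SylIn p ((S : Subgroup G) ⊓ modH1 T A) (modH1 T A) := by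
  haveI := d.modH1_normal
  refine (sylIn_top S).inf_normal le_top le_top ?_
  rw [Subgroup.normalizer_eq_top]

theorem finite_mulAut_inf : Finite (MulAut ↥(pCore p G ⊓ T)) :=
  Finite.of_injective (fun α : MulAut ↥(pCore p G ⊓ T) => (α : _ → _)) DFunLike.coe_injective

theorem NMData.decomp (d : NMData S T A) {s : G} (hs : s ∈ (S : Subgroup G))
    (hs1 : s ∈ modH1 T A) :
    ∃ t ∈ T, ∃ c ∈ pCore p G, c ∈ cenQuot (pCore p G) (pCore p G ⊓ T) ∧ rho p T c = 1 ∧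
      s = t * c := by
  haveI := finite_mulAut_inf (p := p) (T := T)
  obtain ⟨k, hk⟩ := S.isPGroup' ⟨s, hs⟩
  have hk' : s ^ p ^ k = 1 := congrArg Subtype.val hk
  have h1 : rho p T s ∈ T.map (rho p T) := by
    refine d.hsyl.mem_of_normalizing d.hTA hs1.2 ?_ (k := k) (by rw [← map_pow, hk', map_one])
    apply mem_normalizer_of_finite
    rintro _ ⟨t, ht, rfl⟩
    refine ⟨s * t * s⁻¹, d.conj_mem hs ht, ?_⟩
    rw [map_mul, map_mul, map_inv]
  obtain ⟨t, ht, hts⟩ := h1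
  have h2 : rho p T (t⁻¹ * s) = 1 := by rw [map_mul, map_inv, hts, inv_mul_cancel]
  have h3 : t⁻¹ * s ∈ cenQuot (pCore p G) (pCore p G ⊓ T) :=
    Subgroup.mul_mem _ (Subgroup.inv_mem _ (le_cenQuot_of_sc S d.hTS d.hsc ht)) hs1.1
  exact ⟨t, ht, t⁻¹ * s, chain_le_of_centric _ inf_le_left d.hG ⟨h3, rho_eq_one_iff.mp h2⟩, h3, h2,
    by group⟩

/-- key commutator computation: for `a ∈ C_G(Q/Q₀)` and `y = t c`, if `a y a⁻¹ ∈ S` then
`a y a⁻¹ y⁻¹ ∈ T`. -/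
theorem NMData.comm_mem (d : NMData S T A) {a t c : G}
    (ha : a ∈ cenQuot (pCore p G) (pCore p G ⊓ T)) (ht : t ∈ T) (hc : c ∈ pCore p G)
    (h : a * (t * c) * a⁻¹ ∈ (S : Subgroup G)) : a * (t * c) * a⁻¹ * (t * c)⁻¹ ∈ T := by
  have h1 : a * c * a⁻¹ * c⁻¹ ∈ T := (ha c hc).2
  have h2 : a * c * a⁻¹ ∈ (S : Subgroup G) := Cfsg.Agent.Lib.Lead.pCore_le_sylow S
    ((Cfsg.Agent.Lib.Lead.pCore_normal' p G).conj_mem c hc a)
  have h3 : a * t * a⁻¹ ∈ T := by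
    apply d.hsc t ht a
    have := (S : Subgroup G).mul_mem h ((S : Subgroup G).inv_mem h2)
    have e : a * (t * c) * a⁻¹ * (a * c * a⁻¹)⁻¹ = a * t * a⁻¹ := by group
    rwa [e] at this
  have h4 := T.mul_mem (T.mul_mem h3 h1) (T.inv_mem ht)
  have e : a * t * a⁻¹ * (a * c * a⁻¹ * c⁻¹) * t⁻¹ = a * (t * c) * a⁻¹ * (t * c)⁻¹ := by group
  rwa [e] at h4

theorem NMData.residual_inf_le (d : NMData S T A) :
    pResidualOf p (modH1 T A) ⊓ (S : Subgroup G) ≤ T := by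
  obtain ⟨R, hR⟩ := d.sylIn_modH1
  have hTP : T ≤ (S : Subgroup G) ⊓ modH1 T A := le_inf d.hTS d.le_modH1
  have hHK : T.subgroupOf (modH1 T A) ≤ ((S : Subgroup G) ⊓ modH1 T A).subgroupOf (modH1 T A) :=
    fun x hx => hTP hx
  have hKn : ((T.subgroupOf (modH1 T A)).subgroupOf
      (((S : Subgroup G) ⊓ modH1 T A).subgroupOf (modH1 T A))).Normal := by
    rw [Subgroup.normal_subgroupOf_iff_le_normalizer hHK]
    intro x hx
    apply mem_normalizer_of_finite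
    intro y hy
    exact d.conj_mem hx.1 hy
  have hab : ∀ x ∈ ((S : Subgroup G) ⊓ modH1 T A).subgroupOf (modH1 T A),
      ∀ y ∈ ((S : Subgroup G) ⊓ modH1 T A).subgroupOf (modH1 T A),
      x * y * x⁻¹ * y⁻¹ ∈ T.subgroupOf (modH1 T A) := by
    intro x hx y hy
    obtain ⟨t, ht, c, hc, -, -, hy'⟩ := d.decomp hy.1 hy.2
    replace hy' : (y : G) = t * c := hy'
    show (x : G) * (y : G) * (x : G)⁻¹ * (y : G)⁻¹ ∈ T
    rw [hy']
    apply d.comm_mem x.2.1 ht hc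
    rw [← hy']
    exact (S : Subgroup G).mul_mem ((S : Subgroup G).mul_mem hx.1 hy.1)
      ((S : Subgroup G).inv_mem hx.1)
  have hidx : Nat.Coprime p (((S : Subgroup G) ⊓ modH1 T A).subgroupOf (modH1 T A)).index := by
    rw [← hR]
    exact (Nat.Prime.coprime_iff_not_dvd Fact.out).mpr R.not_dvd_index
  obtain ⟨N, hNn, -, hN1, hN2⟩ := Cfsg.Agent.Lib.Helper21.exists_normal_of_controlled_powers
    (p := p) _ _ hHK hKn hab hidx
  have hpow : ∀ h ∈ ((S : Subgroup G) ⊓ modH1 T A).subgroupOf (modH1 T A),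
      ∃ k : ℕ, h ^ p ^ k = 1 := by
    intro h hh
    obtain ⟨k, hk⟩ := S.isPGroup' ⟨h, hh.1⟩
    have hk' : (h : G) ^ p ^ k = 1 := congrArg (Subtype.val : ↥(S : Subgroup G) → G) hk
    exact ⟨k, Subtype.ext hk'⟩
  have hN1' := hN1 (fun h hh => by
    obtain ⟨k, hk⟩ := hpow h hh
    exact ⟨k, by rw [hk]; exact Subgroup.one_mem _⟩)
  have hKN : pResidual p (modH1 T A) ≤ N := by
    unfold pResidual
    rw [Subgroup.closure_le]
    intro x hx
    exact hN1' x hx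
  rintro _ ⟨⟨x, hx, rfl⟩, hxS⟩
  by_contra hxT
  have hxP : x ∈ ((S : Subgroup G) ⊓ modH1 T A).subgroupOf (modH1 T A) := ⟨hxS, x.2⟩
  refine hN2 x hxP hxT ?_ ?_ (hKN hx)
  · obtain ⟨k, hk⟩ := hpow x hxP
    exact (Nat.dvd_prime_pow Fact.out).mp (orderOf_dvd_of_pow_eq_one hk) |>.imp fun _ h => h.2
  · intro m a ha
    have hm : x ^ m ∈ ((S : Subgroup G) ⊓ modH1 T A).subgroupOf (modH1 T A) :=
      Subgroup.zpow_mem _ hxP m
    obtain ⟨t, ht, c, hc, -, -, hy'⟩ := d.decomp hm.1 hm.2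
    replace hy' : ((x ^ m : modH1 T A) : G) = t * c := hy'
    show (a : G) * ((x ^ m : modH1 T A) : G) * (a : G)⁻¹ * ((x ^ m : modH1 T A) : G)⁻¹ ∈ T
    rw [hy']
    apply d.comm_mem a.2.1 ht hc
    rw [← hy']
    exact ha.1

end Cfsg.Agent.Lib.Helper85
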