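import Cfsg.Agent.Lib.Helper85.NormModelGrp2

set_option autoImplicit false

/-! Properties of `H = O^p(H₁) T` and its uniqueness (helper85). -/

namespace Cfsg.Agent.Lib.Helper85

open Cfsg Cfsg.FusionSystem

variable {G : Type*} [Group G] [Finite G] {p : ℕ} [Fact p.Prime] {S : Sylow p G} {T : Subgroup G}
  [hN : (pCore p G ⊓ T).Normal] {A : Subgroup (MulAut ↥(pCore p G ⊓ T))}

theorem NMData.residual_normal (d : NMData S T A) : (pResidualOf p (modH1 T A)).Normal := by
  constructor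
  intro n hn g
  exact pResidualOf_conj_mem (fun h hh => d.modH1_normal.conj_mem h hh g) hn

theorem NMData.mem_normalizer_modH (d : NMData S T A) {y : G} (hy : ∀ t ∈ T, y * t * y⁻¹ ∈ T) :
    y ∈ Subgroup.normalizer ((modH T A : Subgroup G) : Set G) := by
  apply mem_normalizer_of_finite
  have : modH T A ≤ (modH T A).comap (MulAut.conj y).toMonoidHom := by
    refine sup_le ?_ ?_
    · intro k hk
      exact (le_sup_left : pResidualOf p (modH1 T A) ≤ modH T A)
        (d.residual_normal.conj_mem k hk y)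
    · intro t ht
      exact (le_sup_right : T ≤ modH T A) (hy t ht)
  exact fun h hh => this hh

theorem NMData.modH_normal (d : NMData S T A) : (modH T A).Normal := by
  rw [← Subgroup.normalizer_eq_top_iff, eq_top_iff]
  intro g _
  -- conjugate `T ^ g` into `S ∩ H₁`
  have hTg : T.map (MulAut.conj g).toMonoidHom ≤ modH1 T A := by
    rintro _ ⟨t, ht, rfl⟩
    exact d.modH1_normal.conj_mem t (d.le_modH1 ht) g
  have hTp : IsPGroup p (T.map (MulAut.conj g).toMonoidHom) := (S.isPGroup'.to_le d.hTS).map _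
  obtain ⟨x, hx, hxT⟩ := d.sylIn_modH1.exists_conj_le hTg hTp
  obtain ⟨k, hk, s, hs, -, rfl⟩ := d.sylIn_modH1.exists_mul_pResidualOf hx
  have h1 : k * s * g ∈ Subgroup.normalizer ((modH T A : Subgroup G) : Set G) := by
    apply d.mem_normalizer_modH
    intro t ht
    apply d.hsc t ht
    have := (hxT ⟨_, ⟨t, ht, rfl⟩, rfl⟩).1
    have e : (MulAut.conj (k * s)).toMonoidHom ((MulAut.conj g).toMonoidHom t) =
        k * s * g * t * (k * s * g)⁻¹ := by
      simp [mul_assoc]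
    rwa [e] at this
  have h2 : k ∈ Subgroup.normalizer ((modH T A : Subgroup G) : Set G) :=
    Subgroup.le_normalizer ((le_sup_left : pResidualOf p (modH1 T A) ≤ modH T A) hk)
  have h3 : s ∈ Subgroup.normalizer ((modH T A : Subgroup G) : Set G) :=
    d.mem_normalizer_modH (fun t ht => d.conj_mem hs.1 ht)
  have h4 := Subgroup.mul_mem _ (Subgroup.inv_mem _ (Subgroup.mul_mem _ h2 h3)) h1
  have e : (k * s)⁻¹ * (k * s * g) = g := by group
  rwa [e] at h4

theorem NMData.le_modH (_d : NMData S T A) : T ≤ modH T A := le_sup_right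

theorem NMData.modH_le (d : NMData S T A) : modH T A ≤ modH1 T A :=
  sup_le (pResidualOf_le p _) d.le_modH1

theorem NMData.modH_inf (d : NMData S T A) : (S : Subgroup G) ⊓ modH T A = T := by
  apply le_antisymm
  · rintro x ⟨hxS, hx⟩
    haveI := d.residual_normal
    obtain ⟨k, hk, t, ht, rfl⟩ := Subgroup.mem_sup_of_normal_left.mp hx
    have h1 : k ∈ (S : Subgroup G) := by
      have := (S : Subgroup G).mul_mem hxS ((S : Subgroup G).inv_mem (d.hTS ht))
      rwa [mul_inv_cancel_right] at this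
    exact T.mul_mem (d.residual_inf_le ⟨hk, h1⟩) ht
  · exact le_inf d.hTS d.le_modH

theorem NMData.sylIn_modH (d : NMData S T A) : SylIn p T (modH T A) := by
  haveI := d.modH_normal
  have := (sylIn_top S).inf_normal (N := modH T A) le_top le_top
    (by rw [Subgroup.normalizer_eq_top])
  rwa [d.modH_inf] at this

theorem NMData.rho_modH_mem (d : NMData S T A) {h : G} (hh : h ∈ modH T A) : rho p T h ∈ A :=
  (d.modH_le hh).2

theorem NMData.exists_modH (d : NMData S T A) {a : MulAut ↥(pCore p G ⊓ T)} (ha : a ∈ A) :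
    ∃ h ∈ modH T A, rho p T h = a := by
  obtain ⟨g, hg, rfl⟩ := d.hsurj a ha
  obtain ⟨k, hk, s, hs, -, rfl⟩ := d.sylIn_modH1.exists_mul_pResidualOf (g := g) ⟨hg, ha⟩
  obtain ⟨t, ht, c, -, -, hc, rfl⟩ := d.decomp hs.1 hs.2
  refine ⟨k * t, Subgroup.mul_mem _ ((le_sup_left : pResidualOf p (modH1 T A) ≤ modH T A) hk)
    (d.le_modH ht), ?_⟩
  rw [map_mul, map_mul, map_mul, hc, mul_one]

theorem NMData.unique (d : NMData S T A) (H' : Subgroup G) (hn : H'.Normal) (hTH' : T ≤ H')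
    (hsyl : SylIn p T H') (h1 : ∀ h ∈ H', rho p T h ∈ A)
    (h2 : ∀ a ∈ A, ∃ h ∈ H', rho p T h = a) : H' = modH T A := by
  have hQp := Cfsg.Agent.Lib.Lead.pCore_isPGroup p G
  have hQn := Cfsg.Agent.Lib.Lead.pCore_normal' p G
  have hinf : H' ⊓ pCore p G ≤ T := by
    refine hsyl.normal_le inf_le_left (hQp.to_le inf_le_right) ?_
    intro a _ n hn'
    have e : a⁻¹ * n * a = a⁻¹ * n * a⁻¹⁻¹ := by group
    rw [e]
    exact ⟨hn.conj_mem n hn'.1 _, hQn.conj_mem n hn'.2 _⟩
  have hle1 : H' ≤ modH1 T A := by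
    intro h hh
    refine ⟨fun x hx => ?_, h1 h hh⟩
    have a1 : h * x * h⁻¹ * x⁻¹ ∈ pCore p G :=
      (pCore p G).mul_mem (hQn.conj_mem x hx h) ((pCore p G).inv_mem hx)
    have a2 : h * x * h⁻¹ * x⁻¹ ∈ H' := by
      have := H'.mul_mem hh (hn.conj_mem _ (H'.inv_mem hh) x)
      have e : h * (x * h⁻¹ * x⁻¹) = h * x * h⁻¹ * x⁻¹ := by group
      rwa [e] at this
    exact ⟨a1, hinf ⟨a2, a1⟩⟩
  apply le_antisymm
  · intro h hh
    obtain ⟨a, b, hab, ⟨i, hi⟩, hc⟩ := exists_pp_decomp (p := p) h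
    rw [hab]
    refine Subgroup.mul_mem _ ?_ ?_
    · have hzp : IsPGroup p (Subgroup.zpowers (h ^ a)) := by
        rintro ⟨y, hy⟩
        obtain ⟨n, rfl⟩ := Subgroup.mem_zpowers_iff.mp hy
        refine ⟨i, Subtype.ext ?_⟩
        show ((h ^ a) ^ n) ^ p ^ i = 1
        rw [← zpow_natCast, ← zpow_mul, mul_comm, zpow_mul, zpow_natCast, hi, one_zpow]
      obtain ⟨u, -, hu'⟩ := hsyl.exists_conj_le (T := Subgroup.zpowers (h ^ a))
        (by rw [Subgroup.zpowers_le]; exact H'.pow_mem hh a) hzp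
      have a1 : u * h ^ a * u⁻¹ ∈ modH T A := d.le_modH (hu' ⟨_, Subgroup.mem_zpowers _, rfl⟩)
      have a2 := d.modH_normal.conj_mem _ a1 u⁻¹
      have e : u⁻¹ * (u * h ^ a * u⁻¹) * u⁻¹⁻¹ = h ^ a := by group
      rwa [e] at a2
    · exact (le_sup_left : pResidualOf p (modH1 T A) ≤ modH T A)
        (mem_pResidualOf (hle1 (H'.pow_mem hh b)) hc)
  · refine sup_le ?_ hTH'
    apply pResidualOf_le_of_forall
    intro g hg hc
    obtain ⟨h, hh, hhg⟩ := h2 _ hg.2
    have a1 : rho p T (h⁻¹ * g) = 1 := by rw [map_mul, map_inv, hhg, inv_mul_cancel]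
    have a2 : h⁻¹ * g ∈ pCore p G := chain_le_of_centric _ inf_le_left d.hG
      ⟨Subgroup.mul_mem _ (Subgroup.inv_mem _ (hle1 hh).1) hg.1, rho_eq_one_iff.mp a1⟩
    obtain ⟨j, hj⟩ := hQp ⟨_, a2⟩
    have hj' : (h⁻¹ * g) ^ p ^ j = 1 := congrArg Subtype.val hj
    obtain ⟨e', he', hpow⟩ := mul_pow_mem_of_normalizes (N := H') (a := h⁻¹ * g) (e := h)
      (fun n hn' => hn.conj_mem n hn' _) hh (p ^ j)
    rw [hj', mul_one, mul_inv_cancel_left] at hpow
    refine mem_of_pow_mem_coprimePP (m := p ^ j) (n := orderOf g) (by rw [hpow]; exact he')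
      (by rw [pow_orderOf_eq_one]; exact H'.one_mem) (Nat.Coprime.pow_left j hc.symm)

end Cfsg.Agent.Lib.Helper85
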