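import Cfsg.Agent.Lib.Helper85.NormModelGrp
import Cfsg.Agent.Lib.Helper84.FusionSat

set_option autoImplicit false

/-! The extension condition forces elements into `C_G(Q/Q₀)` (helper85). -/

namespace Cfsg.Agent.Lib.Helper85

open Cfsg Cfsg.FusionSystem Cfsg.Agent.Lib.Helper84

variable {G : Type*} [Group G]

theorem inv_apply_of_induces {T : Subgroup G} {γ : MulAut T} {g : G}
    (hg : ∀ x : T, ((γ x : T) : G) = g * x * g⁻¹) (w : T) :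
    ((γ⁻¹ w : T) : G) = g⁻¹ * w * g := by
  have h := hg (γ⁻¹ w)
  rw [MulAut.apply_inv_self] at h
  rw [h]; group

theorem pow_eq_one_of_induces {T : Subgroup G} {γ : MulAut T} {g : G}
    (hg : ∀ x : T, ((γ x : T) : G) = g * x * g⁻¹) {n : ℕ} (hn : g ^ n = 1) : γ ^ n = 1 := by
  ext x
  rw [autInducedBy_pow hg n x, hn]
  simp

variable [Finite G] {p : ℕ} [Fact p.Prime] (S : Sylow p G) {T : Subgroup G}

theorem exists_cenQuot_of_ext (hTS : T ≤ S)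
    (hsc : ∀ t ∈ T, ∀ g : G, g * t * g⁻¹ ∈ (S : Subgroup G) → g * t * g⁻¹ ∈ T)
    [hN : (pCore p G ⊓ T).Normal] (𝒜 : Subgroup (MulAut T))
    (h𝒜S : ∀ s ∈ (S : Subgroup G), ∀ σ : MulAut T, (∀ x : T, ((σ x : T) : G) = s * x * s⁻¹) →
      ∀ a ∈ 𝒜, σ * a * σ⁻¹ ∈ 𝒜)
    (h𝒜p : ∀ a ∈ 𝒜, (∃ k : ℕ, a ^ p ^ k = 1) → ∃ t ∈ T, ∀ x : T, ((a x : T) : G) = t * x * t⁻¹)
    (γ : MulAut T) (hγ : γ ∈ 𝒜) (g : G) (hg : ∀ x : T, ((γ x : T) : G) = g * x * g⁻¹)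
    (hgc : ∀ c ∈ centralizerIn (S : Subgroup G) T,
      c⁻¹ * (g * c * g⁻¹) ∈ T ⊓ Subgroup.centralizer (T : Set G)) :
    ∃ h ∈ cenQuot (pCore p G) (pCore p G ⊓ T), ∀ x : T, ((γ x : T) : G) = h * x * h⁻¹ := by
  have hQn := Cfsg.Agent.Lib.Lead.pCore_normal' p G
  have hQS : pCore p G ≤ (S : Subgroup G) := Cfsg.Agent.Lib.Lead.pCore_le_sylow S
  have hST : ∀ s ∈ (S : Subgroup G), ∀ t ∈ T, s * t * s⁻¹ ∈ T := fun s hs t ht =>
    hsc t ht s ((S : Subgroup G).mul_mem ((S : Subgroup G).mul_mem hs (hTS ht))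
      ((S : Subgroup G).inv_mem hs))
  have hSN : (S : Subgroup G) ≤ Subgroup.normalizer (T : Set G) := fun s hs =>
    mem_normalizer_of_finite (hST s hs)
  -- `g` normalizes `Z(T)`
  have hgZ : ∀ z ∈ T ⊓ Subgroup.centralizer (T : Set G),
      g * z * g⁻¹ ∈ T ⊓ Subgroup.centralizer (T : Set G) := by
    intro z hz
    refine ⟨by rw [← hg ⟨z, hz.1⟩]; exact (γ _).2, ?_⟩
    apply Subgroup.mem_centralizer_iff.2
    intro t ht
    obtain ⟨t', ht'⟩ := γ.surjective ⟨t, ht⟩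
    have e : t = g * t' * g⁻¹ := by rw [← hg t', ht']
    have e2 := (Subgroup.mem_centralizer_iff.1 hz.2) t' t'.2
    rw [e]
    calc g * ↑t' * g⁻¹ * (g * z * g⁻¹) = g * (↑t' * z) * g⁻¹ := by group
      _ = g * (z * ↑t') * g⁻¹ := by rw [e2]
      _ = g * z * g⁻¹ * (g * ↑t' * g⁻¹) := by group
  have hpowc : ∀ k : ℕ, ∀ c ∈ centralizerIn (S : Subgroup G) T,
      c⁻¹ * (g ^ k * c * (g ^ k)⁻¹) ∈ T ⊓ Subgroup.centralizer (T : Set G) := by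
    intro k
    induction k with
    | zero => intro c _; simp [Subgroup.one_mem]
    | succ k ih =>
      intro c hc
      have h1 := Subgroup.mul_mem _ (hgc c hc) (hgZ _ (ih c hc))
      have e : c⁻¹ * (g * c * g⁻¹) * (g * (c⁻¹ * (g ^ k * c * (g ^ k)⁻¹)) * g⁻¹) =
          c⁻¹ * (g ^ (k + 1) * c * (g ^ (k + 1))⁻¹) := by
        rw [pow_succ']; group
      rwa [e] at h1
  obtain ⟨a, b, hab, ⟨i, hi⟩, hcop⟩ := exists_pp_decomp (p := p) g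
  have hga := autInducedBy_pow hg a
  have hgb := autInducedBy_pow hg b
  obtain ⟨t, ht, hta⟩ := h𝒜p (γ ^ a) (𝒜.pow_mem hγ a) ⟨i, pow_eq_one_of_induces hga hi⟩
  -- the `p'`-part lies in `C_G(Q/Q₀)`
  have hmain : g ^ b ∈ cenQuot (pCore p G) (pCore p G ⊓ T) := by
    intro x hx
    have hxS : x ∈ (S : Subgroup G) := hQS hx
    have hyQ : g ^ b * x * (g ^ b)⁻¹ * x⁻¹ ∈ pCore p G :=
      (pCore p G).mul_mem (hQn.conj_mem x hx _) ((pCore p G).inv_mem hx)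
    have hyS := hQS hyQ
    obtain ⟨k, hk⟩ := S.isPGroup' ⟨_, hyS⟩
    have hk' : (g ^ b * x * (g ^ b)⁻¹ * x⁻¹) ^ p ^ k = 1 := congrArg Subtype.val hk
    -- the automorphism induced by `y`
    have hσ : γ ^ b * (conjAut T x (hSN hxS) * (γ ^ b)⁻¹ * (conjAut T x (hSN hxS))⁻¹) ∈ 𝒜 :=
      𝒜.mul_mem (𝒜.pow_mem hγ b) (h𝒜S x hxS _ (fun _ => rfl) _ (𝒜.inv_mem (𝒜.pow_mem hγ b)))
    have hσy : ∀ z : T, (((γ ^ b * (conjAut T x (hSN hxS) * (γ ^ b)⁻¹ *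
        (conjAut T x (hSN hxS))⁻¹)) z : T) : G) =
        (g ^ b * x * (g ^ b)⁻¹ * x⁻¹) * z * (g ^ b * x * (g ^ b)⁻¹ * x⁻¹)⁻¹ := by
      intro z
      rw [MulAut.mul_apply, MulAut.mul_apply, MulAut.mul_apply, hgb, conjAut_apply,
        inv_apply_of_induces hgb, inv_apply_of_induces (g := x) (fun _ => rfl)]
      group
    obtain ⟨t', ht', ht'y⟩ := h𝒜p _ hσ ⟨k, pow_eq_one_of_induces hσy hk'⟩
    have hc : t'⁻¹ * (g ^ b * x * (g ^ b)⁻¹ * x⁻¹) ∈ centralizerIn (S : Subgroup G) T := by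
      refine ⟨(S : Subgroup G).mul_mem ((S : Subgroup G).inv_mem (hTS ht')) hyS, ?_⟩
      apply Subgroup.mem_centralizer_iff.2
      intro z hz
      have e := (hσy ⟨z, hz⟩).symm.trans (ht'y ⟨z, hz⟩)
      have e' : (g ^ b * x * (g ^ b)⁻¹ * x⁻¹) * z * (g ^ b * x * (g ^ b)⁻¹ * x⁻¹)⁻¹ =
          t' * z * t'⁻¹ := e
      calc z * (t'⁻¹ * (g ^ b * x * (g ^ b)⁻¹ * x⁻¹))
          = t'⁻¹ * (t' * z * t'⁻¹) * (g ^ b * x * (g ^ b)⁻¹ * x⁻¹) := by group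
        _ = t'⁻¹ * ((g ^ b * x * (g ^ b)⁻¹ * x⁻¹) * z * (g ^ b * x * (g ^ b)⁻¹ * x⁻¹)⁻¹) *
            (g ^ b * x * (g ^ b)⁻¹ * x⁻¹) := by rw [e']
        _ = t'⁻¹ * (g ^ b * x * (g ^ b)⁻¹ * x⁻¹) * z := by group
    generalize hy : g ^ b * x * (g ^ b)⁻¹ * x⁻¹ = y at *
    -- `[g', y] ∈ Q₀`
    have hgy : g ^ b * y * (g ^ b)⁻¹ * y⁻¹ ∈ pCore p G ⊓ T := by
      refine ⟨(pCore p G).mul_mem (hQn.conj_mem y hyQ _) ((pCore p G).inv_mem hyQ), ?_⟩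
      have hz := hpowc b _ hc
      have hzc := (Subgroup.mem_centralizer_iff.1 hc.2) _ hz.1
      have h1 : g ^ b * t' * (g ^ b)⁻¹ ∈ T := by rw [← hgb ⟨t', ht'⟩]; exact (_ : T).2
      have h2 := T.mul_mem (T.mul_mem h1 hz.1) (T.inv_mem ht')
      have e : g ^ b * t' * (g ^ b)⁻¹ *
          ((t'⁻¹ * y)⁻¹ * (g ^ b * (t'⁻¹ * y) * (g ^ b)⁻¹)) * t'⁻¹ =
          g ^ b * y * (g ^ b)⁻¹ * y⁻¹ := by
        have e1 : (t'⁻¹ * y)⁻¹ * (g ^ b * (t'⁻¹ * y) * (g ^ b)⁻¹) =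
            (t'⁻¹ * y) * ((t'⁻¹ * y)⁻¹ * (g ^ b * (t'⁻¹ * y) * (g ^ b)⁻¹)) * (t'⁻¹ * y)⁻¹ := by
          rw [← hzc]; group
        rw [e1]; group
      rwa [e] at h2
    -- pass to `G / Q₀`
    have e1 : (QuotientGroup.mk' (pCore p G ⊓ T)) (g ^ b) * (QuotientGroup.mk' (pCore p G ⊓ T)) x *
        ((QuotientGroup.mk' (pCore p G ⊓ T)) (g ^ b))⁻¹ =
        (QuotientGroup.mk' (pCore p G ⊓ T)) y * (QuotientGroup.mk' (pCore p G ⊓ T)) x := by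
      rw [← map_inv, ← map_mul, ← map_mul, ← map_mul, ← hy]
      congr 1; group
    have e2 : (QuotientGroup.mk' (pCore p G ⊓ T)) (g ^ b) * (QuotientGroup.mk' (pCore p G ⊓ T)) y *
        ((QuotientGroup.mk' (pCore p G ⊓ T)) (g ^ b))⁻¹ =
        (QuotientGroup.mk' (pCore p G ⊓ T)) y := by
      have h1 : (QuotientGroup.mk' (pCore p G ⊓ T)) (g ^ b * y * (g ^ b)⁻¹ * y⁻¹) = 1 :=
        (QuotientGroup.eq_one_iff _).mpr hgy
      rw [map_mul, map_inv, mul_inv_eq_one, map_mul, map_mul, map_inv] at h1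
      exact h1
    have e3 := pow_conj_of_fixed e1 e2 (orderOf (g ^ b))
    rw [← map_pow, pow_orderOf_eq_one, map_one, one_mul, inv_one, mul_one] at e3
    have e4 : (QuotientGroup.mk' (pCore p G ⊓ T)) y ^ orderOf (g ^ b) = 1 := by
      have := e3.symm
      rwa [mul_eq_right] at this
    have e5 : (QuotientGroup.mk' (pCore p G ⊓ T)) y ^ p ^ k = 1 := by
      rw [← map_pow, hk', map_one]
    have e6 := eq_one_of_pow_coprime e4 e5 (Nat.Coprime.pow_right k hcop)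
    exact (QuotientGroup.eq_one_iff _).mp e6
  refine ⟨t * g ^ b, Subgroup.mul_mem _ (le_cenQuot_of_sc S hTS hsc ht) hmain, fun x => ?_⟩
  have h1 := hta ((γ ^ b) x)
  rw [hga, hgb] at h1
  rw [hg]
  calc g * ↑x * g⁻¹ = (g ^ a * g ^ b) * ↑x * (g ^ a * g ^ b)⁻¹ := by rw [← hab]
    _ = g ^ a * (g ^ b * ↑x * (g ^ b)⁻¹) * (g ^ a)⁻¹ := by group
    _ = t * (g ^ b * ↑x * (g ^ b)⁻¹) * t⁻¹ := h1
    _ = t * g ^ b * ↑x * (t * g ^ b)⁻¹ := by group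

end Cfsg.Agent.Lib.Helper85
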